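import Cfsg.Agent.AutPSp.Exceptional
set_option autoImplicit false

/-!
The order of `Aut PSp_2m(q)` and the outer automorphism group of `PSp_4(2^f)`.
-/

namespace CfsgLib.AutPSp

open Matrix
open CfsgLib.SpGeom

variable {F : Type*} [Field F] [Fintype F] {m : ℕ}

local notation "PSp'" => Cfsg.PSp m F

theorem card_mulAut {p f : ℕ} [Fact p.Prime] (hf : 1 ≤ f) (hF : Fintype.card F = p ^ f)
    (hm : 2 ≤ m) :
    Nat.card (MulAut PSp') =
      (if m = 2 ∧ p = 2 then 2 else 1) * Nat.gcd 2 (p ^ f - 1) * f * Nat.card PSp' := by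
  classical
  haveI : CharP F p := charP_of_card_eq_prime_pow hF
  have hcard := card_presSub (F := F) hm
  rw [card_Sp_eq (by omega), center_eq_gcd (p := p) hf, CfsgLib.AutPSL.card_ringAut F hF] at hcard
  split_ifs with h
  · obtain ⟨rfl, rfl⟩ := h
    rw [← Subgroup.index_mul_card (presSub (F := F) (m := 2)), hcard, index_presSub]
    ring
  · have htop : presSub (F := F) (m := m) = ⊤ := by
      refine presSub_eq_top hm ?_
      by_cases h2 : m = 2
      · refine Or.inr fun h0 => h ⟨h2, ?_⟩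
        exact (Nat.prime_dvd_prime_iff_eq Fact.out Nat.prime_two).1
          ((CharP.cast_eq_zero_iff F p 2).1 (by exact_mod_cast h0))
      · exact Or.inl h2
    rw [htop, Subgroup.card_top] at hcard
    rw [hcard]
    ring

/-- The outer automorphism group of `PSp_4(2^f)` is cyclic of order `2 f`. -/
theorem out_cyclic [CharP F 2] {f : ℕ} (hf : 1 ≤ f) (hF : Fintype.card F = 2 ^ f) :
    IsCyclic (Cfsg.Out (Cfsg.PSp 2 F)) ∧ Nat.card (Cfsg.Out (Cfsg.PSp 2 F)) = 2 * f := by
  classical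
  have h2 : (2 : F) = 0 := CharTwo.two_eq_zero
  have hInnc : Nat.card (Cfsg.Inn (Cfsg.PSp 2 F)) = Nat.card (Cfsg.PSp 2 F) :=
    (Nat.card_congr (MonoidHom.ofInjective (conj_injective (le_refl 2))).toEquiv).symm
  have hrange : Cfsg.Inn (Cfsg.PSp 2 F) = (conjPSp (F := F) (m := 2)).range := by
    refine Subgroup.eq_of_le_of_card_ge inn_le_range (le_of_eq ?_)
    rw [card_range_conjPSp (le_refl 2), card_Sp_eq (by omega), if_pos h2, one_mul, hInnc]
  have hN : (Cfsg.Inn (Cfsg.PSp 2 F)).Normal := inferInstance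
  have hO : Nat.card (Cfsg.Out (Cfsg.PSp 2 F)) = 2 * f := by
    have h := Subgroup.card_eq_card_quotient_mul_card_subgroup (Cfsg.Inn (Cfsg.PSp 2 F))
    rw [card_mulAut hf hF (le_refl 2), if_pos ⟨rfl, rfl⟩, hInnc, Nat.coprime_two_left.2] at h
    · rw [mul_one] at h
      exact (Nat.eq_of_mul_eq_mul_right Nat.card_pos h).symm
    · exact Nat.Even.sub_odd (Nat.one_le_two_pow) (Nat.even_pow.2 ⟨even_two, by omega⟩) odd_one
  refine ⟨isCyclic_of_orderOf_eq_card
    (QuotientGroup.mk' (Cfsg.Inn (Cfsg.PSp 2 F)) graphPSp) ?_, hO⟩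
  refine Eq.trans ?_ hO.symm
  refine (orderOf_eq_iff (by omega)).2 ⟨?_, fun k hk hk0 hkeq => ?_⟩
  · rw [← hO]
    exact pow_card_eq_one'
  rw [← map_pow, QuotientGroup.mk'_apply, QuotientGroup.eq_one_iff, hrange] at hkeq
  obtain ⟨g, hg⟩ := hkeq
  have hsq : ∀ j : ℕ, graphPSp ^ (2 * j) = fieldPSp (m := 2) ((frob (F := F)) ^ j) := fun j => by
    rw [pow_mul, pow_two, graphPSp_mul_self, map_pow]
  obtain ⟨j, rfl | rfl⟩ := Nat.even_or_odd' k
  · rw [hsq] at hg
    have hj := eq_one_of_conjPSp_eq_fieldPSp (le_refl 2) hg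
    have hcoe : ∀ (n : ℕ) (x : F), ((frob (F := F)) ^ n) x = x ^ 2 ^ n := by
      intro n
      induction n with
      | zero => intro x; simp
      | succ n ih =>
        intro x
        rw [pow_succ', RingAut.mul_apply, ih]
        change (x ^ 2 ^ n) ^ 2 = _
        rw [← pow_mul, ← pow_succ]
    obtain ⟨u, hu⟩ := IsCyclic.exists_ofOrder_eq_natCard (α := Fˣ)
    have h1 : u ^ (2 ^ j - 1) = 1 := by
      have e := hcoe j (u : F)
      rw [hj, RingAut.one_apply] at e
      refine Units.ext (mul_right_cancel₀ u.ne_zero ?_)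
      rw [Units.val_pow_eq_pow_val, ← pow_succ, Nat.sub_add_cancel Nat.one_le_two_pow,
        Units.val_one, one_mul, ← e]
    have hj1 : 1 ≤ j := by omega
    have h2j : 2 ≤ 2 ^ j := Nat.le_self_pow (by omega) 2
    have hle : orderOf u ≤ 2 ^ j - 1 := orderOf_le_of_pow_eq_one (by omega) h1
    rw [hu, Nat.card_units, Nat.card_eq_fintype_card, hF] at hle
    have hlt : 2 ^ j < 2 ^ f := Nat.pow_lt_pow_right (by omega) (by omega)
    omega
  · refine not_pres_graphPSp (F := F) ?_
    have h1 : Pres (graphPSp (F := F) ^ (2 * j)) := by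
      rw [hsq]
      have := pres_std (m := 2) (1 : Cfsg.GSp 2 F) ((frob (F := F)) ^ j)
      rwa [std, map_one, one_mul] at this
    have h2' : graphPSp (F := F) = (graphPSp ^ (2 * j))⁻¹ * conjPSp g := by
      rw [hg, pow_succ, inv_mul_cancel_left]
    rw [h2']
    exact h1.inv.mul (pres_conjPSp g)

end CfsgLib.AutPSp
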